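import Mathlib
import Cfsg.Agent.PERM.Ito.Defs

/-! # Ito's theorem: the exponents `W` -/

set_option autoImplicit false
set_option linter.unusedSectionVars false

namespace CL.Ito.MuB

open Cfsg MulAction Subgroup CL.PermMod CL.Neu CL.Blk CL.Char

variable {G : Type*} [Group G] [Fintype G] {l : ℕ} [Fact l.Prime] {z : G}

theorem pow_val_mul (hz : orderOf z = l) (a b : ZMod l) :
    z ^ (a * b).val = (z ^ a.val) ^ b.val := by
  rw [ZMod.val_mul, ← pow_mul]
  conv_rhs => rw [← pow_mod_orderOf, hz]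

theorem pow_val_add (hz : orderOf z = l) (a b : ZMod l) :
    z ^ (a + b).val = z ^ a.val * z ^ b.val := by
  rw [ZMod.val_add, ← pow_add]
  conv_rhs => rw [← pow_mod_orderOf, hz]

theorem ord_pow_val (hz : orderOf z = l) {a : ZMod l} (ha : a ≠ 0) :
    orderOf (z ^ a.val) = l := by
  have hl : l.Prime := Fact.out
  have hc : (orderOf z).Coprime a.val := by
    rw [hz, hl.coprime_iff_not_dvd]
    intro hd
    exact ha ((ZMod.val_eq_zero a).1 (Nat.eq_zero_of_dvd_of_lt hd (ZMod.val_lt a)))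
  rw [hc.orderOf_pow, hz]

theorem one_mem_W : (1 : ZMod l) ∈ W l z := by
  show IsConj z (z ^ (1 : ZMod l).val)
  rw [ZMod.val_one, pow_one]

theorem W_ne (hz : orderOf z = l) {h : ZMod l} (hh : h ∈ W l z) : h ≠ 0 := by
  rintro rfl
  have h1 : IsConj z (z ^ (0 : ZMod l).val) := hh
  rw [ZMod.val_zero, pow_zero, isConj_one_left] at h1
  rw [h1, orderOf_one] at hz
  exact (Fact.out : l.Prime).one_lt.ne hz

theorem W_mul (hz : orderOf z = l) {h k : ZMod l} (hh : h ∈ W l z) (hk : k ∈ W l z) :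
    h * k ∈ W l z := by
  show IsConj z (z ^ (h * k).val)
  rw [pow_val_mul hz]
  exact IsConj.trans hk (IsConj.pow k.val hh)

theorem W_inv (hz : orderOf z = l) {h : ZMod l} (hh : h ∈ W l z) : h⁻¹ ∈ W l z := by
  show IsConj z (z ^ (h⁻¹).val)
  have h1 : IsConj (z ^ (h⁻¹).val) ((z ^ h.val) ^ (h⁻¹).val) := IsConj.pow _ hh
  rw [← pow_val_mul hz, mul_inv_cancel₀ (W_ne hz hh), ZMod.val_one, pow_one] at h1
  exact h1.symm

theorem isConj_iff_W (hz : orderOf z = l) {a b : ZMod l} (ha : a ≠ 0) :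
    IsConj (z ^ a.val) (z ^ b.val) ↔ ∃ h ∈ W l z, b = h * a := by
  constructor
  · intro h
    refine ⟨b * a⁻¹, ?_, by rw [mul_assoc, inv_mul_cancel₀ ha, mul_one]⟩
    have h1 : IsConj ((z ^ a.val) ^ (a⁻¹).val) ((z ^ b.val) ^ (a⁻¹).val) := IsConj.pow _ h
    rw [← pow_val_mul hz, ← pow_val_mul hz, mul_inv_cancel₀ ha, ZMod.val_one, pow_one] at h1
    exact h1
  · rintro ⟨h, hh, rfl⟩
    rw [pow_val_mul hz]
    exact IsConj.pow _ hh

theorem pow_val_inj (hz : orderOf z = l) {a b : ZMod l} (h : z ^ a.val = z ^ b.val) : a = b := by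
  rw [pow_eq_pow_iff_modEq, hz] at h
  exact ZMod.val_injective l (Nat.ModEq.eq_of_lt_of_lt h (ZMod.val_lt a) (ZMod.val_lt b))

theorem exists_val (hz : orderOf z = l) {x : G} (hx : x ∈ zpowers z) :
    ∃ a : ZMod l, x = z ^ a.val := by
  obtain ⟨n, rfl⟩ := (mem_powers_iff_mem_zpowers.2 hx : x ∈ Submonoid.powers z)
  refine ⟨(n : ZMod l), ?_⟩
  show z ^ n = _
  rw [ZMod.val_natCast, ← hz, pow_mod_orderOf]

theorem card_W (hz : SelfCent l z) :
    Nat.card (normalizer (zpowers z : Set G)) = l * (W l z).ncard := by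
  have hc : ∀ h : W l z, ∃ c : G, c * z * c⁻¹ = z ^ (h : ZMod l).val := fun h =>
    isConj_iff.1 h.2
  choose c hc using hc
  have hN : ∀ h : W l z, c h ∈ normalizer (zpowers z : Set G) := fun h => by
    apply mem_normalizer_fintype
    rintro _ ⟨k, rfl⟩
    show c h * z ^ k * (c h)⁻¹ ∈ zpowers z
    rw [← conj_zpow, hc h]
    exact zpow_mem (pow_mem (mem_zpowers z) _) k
  have hcomm : ∀ t : zpowers z, (t : G) * z * (t : G)⁻¹ = z := fun t => by
    obtain ⟨k, hk⟩ := t.2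
    rw [← hk]
    show z ^ k * z * (z ^ k)⁻¹ = z
    group
  let f : W l z × zpowers z → normalizer (zpowers z : Set G) := fun x =>
    ⟨c x.1 * x.2, mul_mem (hN x.1) (le_normalizer x.2.2)⟩
  have hf : Function.Bijective f := by
    constructor
    · rintro ⟨h, t⟩ ⟨k, u⟩ e
      have e1 : c h * (t : G) = c k * (u : G) := congrArg Subtype.val e
      have e2 : h = k := by
        apply Subtype.ext
        apply pow_val_inj hz.ord
        rw [← hc h, ← hc k]
        calc c h * z * (c h)⁻¹ = c h * ((t : G) * z * (t : G)⁻¹) * (c h)⁻¹ := by rw [hcomm t]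
          _ = (c h * t) * z * (c h * t)⁻¹ := by group
          _ = (c k * u) * z * (c k * u)⁻¹ := by rw [e1]
          _ = c k * ((u : G) * z * (u : G)⁻¹) * (c k)⁻¹ := by group
          _ = c k * z * (c k)⁻¹ := by rw [hcomm u]
      subst e2
      exact Prod.ext rfl (Subtype.ext (mul_left_cancel e1))
    · rintro ⟨g, hg⟩
      have h1 : g * z * g⁻¹ ∈ zpowers z := (mem_normalizer_iff.1 hg z).1 (mem_zpowers z)
      obtain ⟨a, ha⟩ := exists_val hz.ord h1
      have haW : a ∈ W l z := isConj_iff.2 ⟨g, ha⟩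
      have h2 : (c ⟨a, haW⟩)⁻¹ * g ∈ zpowers z := by
        rw [← hz.cent, mem_centralizer_singleton_iff]
        have h3 : c ⟨a, haW⟩ * z * (c ⟨a, haW⟩)⁻¹ = g * z * g⁻¹ := by rw [hc, ha]
        calc (c ⟨a, haW⟩)⁻¹ * g * z = (c ⟨a, haW⟩)⁻¹ * (g * z * g⁻¹) * g := by group
          _ = (c ⟨a, haW⟩)⁻¹ * (c ⟨a, haW⟩ * z * (c ⟨a, haW⟩)⁻¹) * g := by rw [h3]
          _ = z * ((c ⟨a, haW⟩)⁻¹ * g) := by group
      exact ⟨(⟨a, haW⟩, ⟨_, h2⟩), Subtype.ext (by simp [f])⟩
  rw [← Nat.card_eq_of_bijective f hf, Nat.card_prod, hz.card, Nat.card_coe_set_eq, mul_comm]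

end CL.Ito.MuB
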