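import Mathlib
import Cfsg.Agent.PERM.Ito.Exc
import Cfsg.Agent.PERM.Ito.Mm
import Cfsg.Agent.INV.Def1Ex

/-! # Ito's theorem: the principal `p`-block, by the landed defect one data -/

set_option autoImplicit false
set_option linter.unusedSectionVars false
set_option maxHeartbeats 400000

namespace CL.Ito.PzD

open Cfsg MulAction Subgroup CL.PermMod CL.Neu CL.Blk CL.Char
open scoped ComplexConjugate

variable {G : Type*} [Group G] [Fintype G] {α : Type*} [Fintype α] [DecidableEq α] [MulAction G α]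
  [FaithfulSMul G α] {p q : ℕ} [Fact p.Prime] [Fact q.Prime] {C : Coord G α p} {y : G} {s : ZMod p}

section
variable {l : ℕ} [Fact l.Prime] {z : G}

theorem cent (hz : SelfCent l z) {x : G} (hx : orderOf x = l) :
    Nat.card (centralizer ({x} : Set G)) = l := by
  obtain ⟨P, hP⟩ := hz.exists_sylow
  have h2 := CL.D1.card_centralizer_eq P (by rw [hP, hz.card]) hx
  rwa [hP, hz.centralizer_zpowers, hz.card] at h2

theorem sing (hz : SelfCent l z) {g : G} (hg : l ∣ orderOf g) : orderOf g = l := by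
  have h2 := cent hz (orderOf_pow_orderOf_div (orderOf_pos g).ne' hg)
  have h3 : g ∈ centralizer ({g ^ (orderOf g / l)} : Set G) :=
    mem_centralizer_singleton_iff.2 (Commute.self_pow _ _).eq
  have h4 := Subgroup.orderOf_dvd_natCard _ h3
  rw [h2] at h4
  exact Nat.dvd_antisymm h4 hg

/-- a character is exceptional or constant `0, 1, -1` on the elements of order `l` -/
theorem tri (hz : SelfCent l z) {e : ℕ} (D : CL.D1.Data G l e) (φ : IrrCharacter G) :
    φ ∈ D.Y ∨ ∃ c : ℤ, (c = 0 ∨ c = 1 ∨ c = -1) ∧ ∀ g, orderOf g = l → (φ : G → ℂ) g = c := by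
  by_cases hY : φ ∈ D.Y
  · exact Or.inl hY
  by_cases hX : φ ∈ D.X
  · exact Or.inr ⟨D.δ φ, Or.inr (D.δ_sign φ hX), fun g hg => D.val_X φ hX g hg.symm.dvd⟩
  by_cases h1 : φ = CL.Char.irrOne G
  · exact Or.inr ⟨1, by simp, fun g _ => by rw [h1, CL.Char.irrOne_apply, Int.cast_one]⟩
  · exact Or.inr ⟨0, by simp, fun g hg => by
      rw [D.eq_zero_of_notMem hg (cent hz hg) h1 hX hY, Int.cast_zero]⟩

theorem sum0 {φ : IrrCharacter G} (h1 : φ ≠ CL.Char.irrOne G) : ∑ g, (φ : G → ℂ) g = 0 := by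
  have := card_mul_classInner (φ : G → ℂ) (fun _ => 1)
  rw [φ.2.inner_of_ne isIrrCharacter_one (fun e => h1 (eq_irrOne_iff.2 e)), mul_zero] at this
  simpa using this.symm

theorem sumY {e : ℕ} (D : CL.D1.Data G l e) {φ φ' : IrrCharacter G} (h1 : φ ∈ D.Y) (h2 : φ' ∈ D.Y) :
    ∑ g, ((φ : G → ℂ) - (φ' : G → ℂ)) g = 0 := by
  simp only [Pi.sub_apply, Finset.sum_sub_distrib]
  rw [sum0 fun e => D.one_Y (e ▸ h1), sum0 fun e => D.one_Y (e ▸ h2), sub_self]

theorem offY (hz : SelfCent l z) {e : ℕ} (D : CL.D1.Data G l e) {φ φ' : IrrCharacter G}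
    (h1 : φ ∈ D.Y) (h2 : φ' ∈ D.Y) {g : G} (hg : orderOf g ≠ l) : (φ : G → ℂ) g = (φ' : G → ℂ) g :=
  D.Y_eq h1 h2 fun e => hg (sing hz e)

/-- exceptional characters have the same fixed space dimension -/
theorem mu0 (hz : SelfCent l z) {e : ℕ} (D : CL.D1.Data G l e) {φ φ' : IrrCharacter G}
    (h1 : φ ∈ D.Y) (h2 : φ' ∈ D.Y) : mu l z φ 0 = mu l z φ' 0 := by
  classical
  have h3 := sum_el hz (φ.2.isClassFunction.sub φ'.2.isClassFunction)
  rw [Finset.sum_filter_of_ne (f := fun g => ((φ : G → ℂ) - (φ' : G → ℂ)) g)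
      fun g _ hg => by_contra fun e => hg (sub_eq_zero.2 (offY hz D h1 h2 e)),
    sumY D h1 h2, mul_zero, Finset.sum_filter_of_ne (p := fun a : ZMod l => a ≠ 0)
      (f := fun a : ZMod l => ((φ : G → ℂ) - (φ' : G → ℂ)) (z ^ a.val)) fun a _ ha e => ha (by
      rw [e, ZMod.val_zero, pow_zero]
      exact sub_eq_zero.2 (offY hz D h1 h2 (by rw [orderOf_one]; exact (Fact.out : l.Prime).one_lt.ne)))] at h3
  rw [← sub_eq_zero, ← mu_sub, mu]
  simp only [zero_mul, neg_zero, AddChar.map_zero_eq_one, mul_one]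
  rw [(mul_eq_zero.1 h3.symm).resolve_left (card_ne_zero G), mul_zero]

end

variable (h : Cx C q y s)
include h

theorem data : Nonempty (CL.D1.Data G p q) := by
  obtain ⟨P, hP⟩ := h.scx.exists_sylow
  have h1 := h.pq
  have h5 := h.q5
  refine CL.D1.exists_data h.perf (by omega) P (by rw [hP, h.scx.card]) ?_
  have := CL.Small.card_centralizer_mul_relIndex (P : Subgroup G)
  rw [hP, h.scx.centralizer_zpowers, h.scx.card] at this
  rw [hP, h.scx.centralizer_zpowers]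
  have h2 := h.nrm
  rw [← this, show p - 1 = 2 * q by omega, mul_left_comm] at h2
  have := Nat.eq_of_mul_eq_mul_left (by omega) h2
  omega

/-- there are two exceptional characters -/
theorem two (D : CL.D1.Data G p q) {φ : IrrCharacter G} (hφ : φ ∈ D.Y) : ∃ φ' ∈ D.Y, φ' ≠ φ ∧
    ∀ g, orderOf g = p → (φ : G → ℂ) g + (φ' : G → ℂ) g = -D.ε := by
  classical
  have h1 := D.card_Y.trans h.pq
  have h5 := h.q5
  obtain ⟨a, b, hab, e⟩ := Finset.card_eq_two.1
    (Nat.eq_of_mul_eq_mul_right (show 0 < q by omega) (Nat.add_right_cancel h1))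
  have hs : ∀ g, orderOf g = p → (a : G → ℂ) g + (b : G → ℂ) g = -D.ε := fun g hg => by
    rw [← D.sum_Y g hg.symm.dvd, e, Finset.sum_pair hab]
  rw [e] at hφ ⊢
  rcases Finset.mem_insert.1 hφ with rfl | hφ
  · exact ⟨b, by simp, hab.symm, hs⟩
  · rw [Finset.mem_singleton.1 hφ]
    exact ⟨a, by simp, hab, fun g hg => by rw [add_comm, hs g hg]⟩

theorem deg (φ : IrrCharacter G) {d : ℕ} (hd : (φ : G → ℂ) 1 = d) : p ∣ d ∨
    (d : ℤ) ≡ 1 [ZMOD p] ∨ (d : ℤ) ≡ -1 [ZMOD p] ∨ (d : ℤ) ≡ q [ZMOD p] ∨ (d : ℤ) ≡ -q [ZMOD p] := by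
  obtain ⟨D⟩ := data h
  rw [← charDegree_eq_of_apply_one hd]
  by_cases hY : φ ∈ D.Y
  · have := D.deg_Y φ hY
    rcases D.ε_sign with e | e <;> rw [e] at this
    · exact Or.inr (Or.inr (Or.inr (Or.inl (by simpa using this))))
    · exact Or.inr (Or.inr (Or.inr (Or.inr (by simpa using this))))
  by_cases hX : φ ∈ D.X
  · have := D.deg_X h.scx.ord hX
    rcases D.δ_sign φ hX with e | e <;> rw [e] at this
    exacts [Or.inr (Or.inl this), Or.inr (Or.inr (Or.inl this))]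
  by_cases h1 : φ = CL.Char.irrOne G
  · exact Or.inr (Or.inl (by rw [h1, irrOne_coe, charDegree_const_one]; rfl))
  · exact Or.inl (D.dvd_of_notMem h.scx.ord (cent h.scx h.scx.ord) h1 hX hY)

theorem excY (D : CL.D1.Data G p q) {φ : IrrCharacter G} (hφ : φ ∈ D.Y) (h0 : mu p C.σ φ 0 = 0) :
    (φ : G → ℂ) 1 = q := by
  obtain ⟨φ', hφ', -, hs⟩ := two h D hφ
  have h1 := mu_const (z := C.σ) (φ := (φ : G → ℂ) + (φ' : G → ℂ)) (c := -D.ε)
    (fun a ha => hs _ (ord_pow_val h.scx.ord ha)) (0 : ZMod p)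
  obtain ⟨d, d0, hd⟩ := φ.2.exists_pos_degree
  rw [mu_add, ← mu0 h.scx D hφ hφ', h0, Pi.add_apply, ← offY h.scx D hφ hφ'
    (by rw [orderOf_one]; exact (Fact.out : p.Prime).one_lt.ne), if_pos rfl, hd] at h1
  have h2 : (p : ℂ) = 2 * q + 1 := by exact_mod_cast h.pq
  rw [hd]
  rcases D.ε_sign with e | e <;> rw [e, h2] at h1
  · push_cast at h1
    linear_combination (-1 / 2 : ℂ) * h1
  · have : d + q = 0 := by
      have : ((d + q : ℕ) : ℂ) = 0 := by push_cast at h1 ⊢; linear_combination (-1 / 2 : ℂ) * h1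
      exact_mod_cast this
    omega

theorem rat (φ : IrrCharacter G)
    (hc : ∀ i j : ZMod p, i ≠ 0 → j ≠ 0 → mu p C.σ φ i = mu p C.σ φ j) :
    ∃ c : ℤ, (c = 0 ∨ c = 1 ∨ c = -1) ∧ ∀ a : ZMod p, a ≠ 0 → (φ : G → ℂ) (C.σ ^ a.val) = c := by
  classical
  obtain ⟨D⟩ := data h
  rcases tri h.scx D φ with hφ | ⟨c, h1, h2⟩
  swap
  · exact ⟨c, h1, fun a ha => h2 _ (ord_pow_val h.scx.ord ha)⟩
  exfalso
  obtain ⟨φ', hφ', hne, hs⟩ := two h D hφ
  have h1 : ∀ a : ZMod p, a ≠ 0 → (φ : G → ℂ) (C.σ ^ a.val) = mu p C.σ φ 0 - mu p C.σ φ 1 := fun a ha => by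
    have h2 := Mu.see a
    rw [if_neg ha, ← Finset.add_sum_erase _ _ (Finset.mem_univ 0)] at h2
    rw [mu_inv (φ : G → ℂ) a, ← Finset.add_sum_erase _ _ (Finset.mem_univ 0), Finset.sum_congr rfl fun i hi => by
      rw [hc i 1 (Finset.ne_of_mem_erase hi) one_ne_zero], ← Finset.mul_sum]
    simp only [zero_mul, AddChar.map_zero_eq_one] at h2 ⊢
    linear_combination mu p C.σ φ 1 * h2
  set c := mu p C.σ φ 0 - mu p C.σ φ 1
  have h2 : ∀ a : ZMod p, a ≠ 0 → (φ' : G → ℂ) (C.σ ^ a.val) = -D.ε - c := fun a ha => by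
    rw [← h1 a ha, ← hs _ (ord_pow_val h.scx.ord ha), add_sub_cancel_left]
  have h3 := mu_const h1 0
  have h4 := mu_const h2 0
  have p1 := (Fact.out : p.Prime).one_lt
  rw [← mu0 h.scx D hφ hφ', ← offY h.scx D hφ hφ' (by rw [orderOf_one]; exact p1.ne), h3,
    if_pos rfl, if_pos rfl] at h4
  have h5 := mul_left_cancel₀ (sub_ne_zero.2 (by exact_mod_cast p1.ne')) (add_left_cancel h4)
  refine hne (Subtype.ext (funext fun g => ?_))
  by_cases hg : orderOf g = p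
  · obtain ⟨a, ha, e⟩ := exists_conj h.scx hg
    rw [← φ.2.isClassFunction.eq_of_isConj e, ← φ'.2.isClassFunction.eq_of_isConj e, h1 a ha, h2 a ha, ← h5]
  · exact offY h.scx D hφ' hφ hg

theorem exc (φ : IrrCharacter G) {i j : ZMod p} (hi : i ≠ 0) (hj : j ≠ 0)
    (hij : mu p C.σ φ i ≠ mu p C.σ φ j) (h0 : mu p C.σ φ 0 = 0) : (φ : G → ℂ) 1 = q := by
  obtain ⟨D⟩ := data h
  rcases tri h.scx D φ with hφ | ⟨c, -, h2⟩
  · exact excY h D hφ h0
  · have h3 := mu_const (z := C.σ) fun (a : ZMod p) ha => h2 _ (ord_pow_val h.scx.ord ha)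
    exact absurd (mul_left_cancel₀ (Nat.cast_ne_zero.2 (Fact.out : p.Prime).ne_zero)
      (by rw [h3, h3, if_neg hi, if_neg hj])) hij

theorem typ (hq : ∀ χ : IrrCharacter G, (χ : G → ℂ) 1 ≠ q) {θ : G → ℂ} (hθ : IsCharacter G θ)
    {c₀ : ℂ} (h0 : ∀ g : G, orderOf g = p → θ g = c₀)
    (h1 : ∀ i, mm C q y θ i = 0 ∨ mm C q y θ i = 1) (φ : IrrCharacter G)
    (hφ : classInner θ φ ≠ 0) :
    ∃ c : ℤ, (c = 0 ∨ c = 1 ∨ c = -1) ∧ ∀ a : ZMod p, a ≠ 0 → (φ : G → ℂ) (C.σ ^ a.val) = c := by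
  obtain ⟨D⟩ := data h
  rcases tri h.scx D φ with hY | ⟨c, h1, h2⟩
  swap
  · exact ⟨c, h1, fun a ha => h2 _ (ord_pow_val h.scx.ord ha)⟩
  exfalso
  obtain ⟨φ', hY', hne, -⟩ := two h D hY
  have h2 : classInner θ φ = classInner θ φ' := by
    rw [← sub_eq_zero, ← classInner_sub_right, classInner_def, Finset.sum_congr rfl
      (g := fun g => c₀ * conj (((φ : G → ℂ) - (φ' : G → ℂ)) g)) fun g _ => ?_, ← Finset.mul_sum,
      ← map_sum, sumY D hY hY', map_zero, mul_zero, mul_zero]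
    by_cases hg : orderOf g = p
    · rw [h0 g hg]
    · rw [Pi.sub_apply, offY h.scx D hY hY' hg, sub_self, map_zero, mul_zero, mul_zero]
  have h3 := hθ.sub_irr_sub_irr φ.2 φ'.2 (fun e => hne (Subtype.ext e.symm)) hφ (h2 ▸ hφ)
  have hpq := h.pq
  have h4 : ∀ n : ℕ, (φ : G → ℂ) (y ^ n) = (φ' : G → ℂ) (y ^ n) := fun n =>
    offY h.scx D hY hY' fun e => by
      have := Nat.le_of_dvd (Fact.out : q.Prime).pos (e ▸ h.scy.ord ▸ orderOf_pow_dvd n : p ∣ q)
      omega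
  refine hq φ (excY h D hY ?_)
  rw [← mm_tot (q := q) (y := y)]
  refine Finset.sum_eq_zero fun i _ => ?_
  have h5 : mm C q y φ' i = mm C q y φ i := by
    have := h4 0
    rw [pow_zero] at this
    simp only [mm, mu0 h.scx D hY hY', this]
    simp only [mu, h4]
  obtain ⟨n, hn⟩ := h.mm_nat h3 i
  obtain ⟨m, hm⟩ := h.mm_nat φ.2.isCharacter i
  rw [mm_sub, mm_add, h5, hm] at hn
  rw [hm, Nat.cast_eq_zero]
  rcases h1 i with e | e <;> rw [e] at hn
  · have : n + m + m = 0 := by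
      have : ((n + m + m : ℕ) : ℂ) = 0 := by push_cast; linear_combination -hn
      exact_mod_cast this
    omega
  · have : n + m + m = 1 := by
      have : ((n + m + m : ℕ) : ℂ) = 1 := by push_cast; linear_combination -hn
      exact_mod_cast this
    omega

end CL.Ito.PzD
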