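import Mathlib
import Cfsg.Agent.PERM.Ito.Defs

/-! # Ito's theorem: the group is perfect -/

set_option autoImplicit false
set_option linter.unusedSectionVars false

namespace CL.Ito.StP

open Cfsg MulAction Subgroup CL.PermMod CL.Neu CL.Blk

variable {G : Type*} [Group G] [Fintype G] {α : Type*} [Fintype α] [DecidableEq α] [MulAction G α]
  [FaithfulSMul G α] {p q : ℕ} [Fact p.Prime] [Fact q.Prime] {C : Coord G α p}

/-- a nontrivial normal subgroup of a transitive group of prime degree `p` has order divisible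
by `p` -/
theorem dvd_card [IsPretransitive G α] (hα : Fintype.card α = p) (D : Subgroup G) [D.Normal]
    (hD : D ≠ ⊥) : p ∣ Nat.card D := by
  have hp : p.Prime := Fact.out
  have hc : Nat.card α = p := by rw [Nat.card_eq_fintype_card, hα]
  have : IsPreprimitive G α := IsPreprimitive.of_prime_card (hc ▸ hp)
  have ht : IsPretransitive D α := IsQuasiPreprimitive.isPretransitive_of_normal (by
    intro h
    apply hD
    rw [eq_bot_iff]
    intro g hg
    rw [mem_bot]
    refine FaithfulSMul.eq_of_smul_eq_smul (α := α) fun a => ?_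
    rw [one_smul]
    have : a ∈ fixedPoints D α := h ▸ Set.mem_univ a
    exact this ⟨g, hg⟩)
  have : Nonempty α := Fintype.card_pos_iff.1 (hα ▸ hp.pos)
  obtain ⟨a⟩ := this
  rw [← hc, ← index_stabilizer_of_transitive D a]
  exact index_dvd_card _

theorem sub {x : G} (h : SelfCent p x) (H : Subgroup G) (hx : x ∈ H) :
    SelfCent p (⟨x, hx⟩ : H) := by
  refine ⟨by rw [← Subgroup.orderOf_coe]; exact h.ord, ?_⟩
  ext g
  rw [mem_centralizer_singleton_iff]
  constructor
  · intro e
    have : (g : G) ∈ zpowers x := by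
      rw [← h.cent, mem_centralizer_singleton_iff]
      exact congrArg Subtype.val e
    obtain ⟨n, hn⟩ := mem_zpowers_iff.1 this
    exact mem_zpowers_iff.2 ⟨n, Subtype.ext (by simpa using hn)⟩
  · intro e
    obtain ⟨n, rfl⟩ := mem_zpowers_iff.1 e
    exact (Commute.refl _).zpow_left n

theorem perf [IsPretransitive G α] (hα : Fintype.card α = p) (hG : ¬ Group.IsSolvable G)
    (scx : SelfCent p C.σ) (nrm : 2 * Nat.card (normalizer (zpowers C.σ : Set G)) = p * (p - 1))
    (hpq : p = 2 * q + 1) : _root_.commutator G = ⊤ := by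
  have hp : p.Prime := Fact.out
  have hq : q.Prime := Fact.out
  set N := normalizer (zpowers C.σ : Set G) with hN
  have hle : zpowers C.σ ≤ N := le_normalizer
  have cN : Nat.card N = p * q := by
    have : p - 1 = 2 * q := by omega
    rw [this] at nrm
    nlinarith
  have ha : autIdx C.σ = q := by
    have h1 := ((zpowers C.σ).subgroupOf N).card_mul_index
    rw [Nat.card_congr (subgroupOfEquivOfLe hle).toEquiv, scx.card, cN] at h1
    exact Nat.eq_of_mul_eq_mul_left hp.pos h1
  have he : autIdx C.σ ≠ 1 := ha ▸ hq.one_lt.ne'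
  have hd := scx.index_commutator_dvd he
  rw [ha] at hd
  rcases (Nat.dvd_prime hq).1 hd with h1 | h1
  · exact index_eq_one.1 h1
  exfalso
  set H := _root_.commutator G with hH
  have hx : C.σ ∈ H := scx.mem_commutator he
  have sx := sub scx H hx
  -- `H` is perfect
  have hD : (⁅H, H⁆ : Subgroup G) ≠ ⊥ := fun e => hG ⟨⟨2, by
    rw [derivedSeries_succ, derivedSeries_one]; exact e⟩⟩
  have hHD : H ≤ ⁅H, H⁆ := scx.commutator_le _ (dvd_card hα _ hD)
  have hP : _root_.commutator H = ⊤ := by
    apply map_injective H.subtype_injective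
    rw [map_subtype_commutator, ← MonoidHom.range_eq_map, range_subtype]
    exact le_antisymm (commutator_le_left _ _) hHD
  -- `N ⊓ H = ⟨σ⟩`
  have cI : Nat.card (H.subgroupOf N) = p := by
    have h2 : H.relIndex N = q := by
      rw [← relIndex_sup_right, scx.normalizer_sup H hx, relIndex_top_right, h1]
    have h3 := (H.subgroupOf N).card_mul_index
    rw [cN] at h3
    rw [show (H.subgroupOf N).index = q from h2] at h3
    exact Nat.eq_of_mul_eq_mul_right hq.pos h3
  have e1 : autIdx (⟨C.σ, hx⟩ : H) = 1 := by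
    rw [autIdx, relIndex_eq_one]
    intro g hg
    have hgN : (g : G) ∈ N := by
      rw [hN, mem_normalizer_iff]
      intro z
      constructor
      · intro hz
        obtain ⟨n, rfl⟩ := mem_zpowers_iff.1 hz
        have := (mem_normalizer_iff.1 hg (⟨C.σ, hx⟩ ^ n)).1 (zpow_mem (mem_zpowers _) n)
        obtain ⟨m, hm⟩ := mem_zpowers_iff.1 this
        exact mem_zpowers_iff.2 ⟨m, by simpa using congrArg Subtype.val hm⟩
      · intro hz
        obtain ⟨n, hn⟩ := mem_zpowers_iff.1 hz
        have hz' : z ∈ H := by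
          have : z = (g : G)⁻¹ * (C.σ ^ n) * g := by rw [hn]; group
          rw [this]
          exact mul_mem (mul_mem (inv_mem g.2) (zpow_mem hx n)) g.2
        have := (mem_normalizer_iff.1 hg ⟨z, hz'⟩).2
          (mem_zpowers_iff.2 ⟨n, Subtype.ext (by simpa using hn)⟩)
        obtain ⟨m, hm⟩ := mem_zpowers_iff.1 this
        exact mem_zpowers_iff.2 ⟨m, by simpa using congrArg Subtype.val hm⟩
    have heq : (zpowers C.σ).subgroupOf N = H.subgroupOf N := by
      apply eq_of_le_of_card_ge
      · intro z hz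
        exact (zpowers_le.2 hx) hz
      · rw [cI, Nat.card_congr (subgroupOfEquivOfLe hle).toEquiv, scx.card]
    have : (⟨g, hgN⟩ : N) ∈ (zpowers C.σ).subgroupOf N := heq ▸ g.2
    obtain ⟨m, hm⟩ := mem_zpowers_iff.1 (mem_subgroupOf.1 this)
    exact mem_zpowers_iff.2 ⟨m, Subtype.ext (by simpa using hm)⟩
  have := sx.index_pPrimeCore e1
  rw [← sx.commutator_eq e1, hP, index_top] at this
  exact hp.one_lt.ne this

end CL.Ito.StP
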