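import Mathlib
import Cfsg.Agent.PERM.Ito.Defs

/-! # Ito's theorem: Burnside's lemma on injective `4`-tuples -/

set_option autoImplicit false
set_option linter.unusedSectionVars false

namespace CL.Ito.T4b

open Cfsg MulAction Subgroup

variable {G : Type*} [Group G] [Fintype G] {α : Type*} [Fintype α] [DecidableEq α] [MulAction G α]

/-- fixed injective tuples are the injective tuples of fixed points -/
theorem card_fix (k : ℕ) (g : G) :
    Nat.card (fixedBy (Fin k ↪ α) g) = (fx α g).descFactorial k := by
  classical
  have e : fixedBy (Fin k ↪ α) g ≃ (Fin k ↪ fixedBy α g) :=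
    { toFun := fun x => ⟨fun i => ⟨x.1 i, by
          have := congrArg (fun y : Fin k ↪ α => y i) (mem_fixedBy.1 x.2)
          simpa using this⟩, fun i j hij => x.1.injective (congrArg Subtype.val hij)⟩
      invFun := fun y => ⟨⟨fun i => (y i).1, fun i j hij => y.injective (Subtype.ext hij)⟩, by
          rw [mem_fixedBy]
          ext i
          exact (y i).2⟩
      left_inv := fun x => rfl
      right_inv := fun y => rfl }
  rw [Nat.card_congr e, Nat.card_eq_fintype_card, Fintype.card_embedding_eq, Fintype.card_fin, fx,
    Nat.card_eq_fintype_card]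

theorem cast4 (n : ℕ) :
    ((n.descFactorial 4 : ℕ) : ℂ) = (n : ℂ) * (n - 1) * (n - 2) * (n - 3) := by
  rcases n with _ | _ | _ | n
  · simp
  · simp [Nat.descFactorial]
  · simp [Nat.descFactorial]
  · have h : (n + 1 + 1 + 1).descFactorial 4 = n * ((n + 1) * ((n + 2) * (n + 3))) := by
      simp only [Nat.descFactorial]
      rw [show n + 1 + 1 + 1 - 3 = n by omega, show n + 1 + 1 + 1 - 2 = n + 1 by omega,
        show n + 1 + 1 + 1 - 1 = n + 2 by omega, show n + 1 + 1 + 1 - 0 = n + 3 by omega, mul_one]
    rw [h]; push_cast; ring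

/-- if the number of fixed points has mean one, the action is transitive -/
theorem tr_of_sum {X : Type*} [Finite X] [MulAction G X]
    (h : ∑ g : G, Nat.card (fixedBy X g) = Nat.card G) : IsPretransitive G X := by
  classical
  have := Fintype.ofFinite X
  have hb := sum_card_fixedBy_eq_card_orbits_mul_card_group G X
  simp only [← Nat.card_eq_fintype_card] at hb
  rw [h] at hb
  have h1 : Nat.card (Quotient (orbitRel G X)) = 1 := by
    have hp : 0 < Nat.card G := Nat.card_pos
    exact (Nat.eq_of_mul_eq_mul_right hp (by rw [one_mul]; exact hb)).symm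
  have : Subsingleton (Quotient (orbitRel G X)) := (Nat.card_eq_one_iff_unique.1 h1).1
  refine ⟨fun x y => ?_⟩
  have : (Quotient.mk (orbitRel G X) y) = Quotient.mk (orbitRel G X) x := Subsingleton.elim _ _
  exact Quotient.exact this

theorem four_of_sum (h : ∑ g : G, F α g * (F α g - 1) * (F α g - 2) * (F α g - 3) = Nat.card G) :
    IsMultiplyPretransitive G α 4 := by
  refine tr_of_sum ?_
  have : ((∑ g : G, Nat.card (fixedBy (Fin 4 ↪ α) g) : ℕ) : ℂ) = Nat.card G := by
    rw [← h]
    push_cast
    exact Finset.sum_congr rfl fun g _ => by rw [card_fix, cast4]; rfl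
  exact_mod_cast this

end CL.Ito.T4b
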